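-- Project UPAIR (S5984), package [EMB] (helper72, second seat).
import Mathlib
import Cfsg.Agent.Lib.Helper58.UPair.Defs
import Cfsg.Agent.Lib.Helper45.HermBasic

set_option autoImplicit false
open scoped MatrixGroups Matrix

namespace Cfsg.Agent.Lib.Helper72.UPair

open Cfsg.Agent.Lib.Helper58.UPair Cfsg.Agent.Lib.Helper45

universe u

section
variable {F : Type u} [Field F] [Fintype F] {q : ℕ}

theorem embHermDot (hF : Fintype.card F = q ^ 2) (n : ℕ) (u v : Fin n → F) :
    Cfsg.hermForm n F q u v = u ⬝ᵥ (⇑(sigmaQ hF) ∘ v) := rfl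

/-- A matrix `M` with `Mᵀ * σ(M) = 1` preserves the hermitian form. -/
theorem embIsoOfGram (hF : Fintype.card F = q ^ 2) {n : ℕ} (M : Matrix (Fin n) (Fin n) F)
    (hM : Mᵀ * M.map (sigmaQ hF) = 1) (u v : Fin n → F) :
    Cfsg.hermForm n F q (M *ᵥ u) (M *ᵥ v) = Cfsg.hermForm n F q u v := by
  rw [embHermDot hF, embHermDot hF]
  have h1 : ⇑(sigmaQ hF) ∘ (M *ᵥ v) = (M.map (sigmaQ hF)) *ᵥ (⇑(sigmaQ hF) ∘ v) := by
    funext i
    exact RingHom.map_mulVec (sigmaQ hF) M v i
  rw [h1, ← Matrix.vecMul_transpose M u, ← Matrix.dotProduct_mulVec, Matrix.mulVec_mulVec, hM,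
    Matrix.one_mulVec]

/-- The Gram matrix of an adapted basis. -/
theorem embGram (hF : Fintype.card F = q ^ 2) {n m : ℕ} {D : Fin 2 → Submodule F (Fin n → F)}
    {b : Module.Basis (Fin m ⊕ Fin m) F (Fin n → F)} (hD : IsTSPair n m F q D)
    (hb : IsAdapted n m F q D b) :
    ((Pi.basisFun F (Fin n)).toMatrix b)ᵀ * ((Pi.basisFun F (Fin n)).toMatrix b).map (sigmaQ hF)
      = Matrix.fromBlocks 0 1 1 0 := by
  ext s t
  have h1 : (((Pi.basisFun F (Fin n)).toMatrix b)ᵀ *
      ((Pi.basisFun F (Fin n)).toMatrix b).map (sigmaQ hF)) s t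
        = Cfsg.hermForm n F q (b s) (b t) := by
    simp [Matrix.mul_apply, Cfsg.hermForm, Module.Basis.toMatrix_apply, sigmaQ_apply]
  rw [h1]
  rcases s with i | i <;> rcases t with j | j
  · rw [Matrix.fromBlocks_apply₁₁, Matrix.zero_apply]
    exact hD.2 0 _ (hb.1 i) _ (hb.1 j)
  · rw [Matrix.fromBlocks_apply₁₂, Matrix.one_apply]
    exact hb.2.2 i j
  · rw [Matrix.fromBlocks_apply₂₁, Matrix.one_apply, ← herm_conj hF, hb.2.2 j i]
    by_cases hij : i = j
    · subst hij
      simp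
    · rw [if_neg hij, if_neg (Ne.symm hij)]
      exact conj_zero hF
  · rw [Matrix.fromBlocks_apply₂₂, Matrix.zero_apply]
    exact hD.2 1 _ (hb.2.1 i) _ (hb.2.1 j)

end

/-- [EMB] `GL_m(q²)` embeds into the unitary matrices fixing both members of a pair. -/
theorem pkgEmb : PkgEmb.{u} := by
  intro F _ _ q n m D b hF hD hb
  classical
  obtain ⟨σ, hσ⟩ : ∃ σ : F →+* F, σ = sigmaQ hF := ⟨_, rfl⟩
  have hσq : ∀ x, σ x = x ^ q := by
    intro x
    rw [hσ, sigmaQ_apply]
  have hσσ : ∀ x, σ (σ x) = x := by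
    intro x
    rw [hσq, hσq]
    exact conj_conj hF x
  obtain ⟨P, hP⟩ : ∃ P : Matrix (Fin n) (Fin m ⊕ Fin m) F,
      P = (Pi.basisFun F (Fin n)).toMatrix b := ⟨_, rfl⟩
  obtain ⟨P', hP'⟩ : ∃ P' : Matrix (Fin m ⊕ Fin m) (Fin n) F,
      P' = b.toMatrix (Pi.basisFun F (Fin n)) := ⟨_, rfl⟩
  have hPP' : P * P' = 1 := by
    rw [hP, hP']
    exact Module.Basis.toMatrix_mul_toMatrix_flip _ _
  have hP'P : P' * P = 1 := by
    rw [hP, hP']
    exact Module.Basis.toMatrix_mul_toMatrix_flip _ _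
  have hG : Pᵀ * P.map σ = Matrix.fromBlocks 0 1 1 0 := by
    rw [hP, hσ]
    exact embGram hF hD hb
  have hG' : P'ᵀ * ((Matrix.fromBlocks 0 1 1 0 :
      Matrix (Fin m ⊕ Fin m) (Fin m ⊕ Fin m) F) * P'.map σ) = 1 := by
    rw [← hG, Matrix.mul_assoc, ← Matrix.map_mul, ← Matrix.mul_assoc, ← Matrix.transpose_mul,
      hPP', Matrix.transpose_one, Matrix.one_mul, Matrix.map_one _ (map_zero σ) (map_one σ)]
  have hcancel : ∀ X : Matrix (Fin m ⊕ Fin m) (Fin m ⊕ Fin m) F, P' * (P * X * P') * P = X := by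
    intro X
    simp only [Matrix.mul_assoc]
    rw [hP'P, Matrix.mul_one, ← Matrix.mul_assoc, hP'P, Matrix.one_mul]
  -- the block matrix
  obtain ⟨blk, hblk⟩ : ∃ blk : GL (Fin m) F → Matrix (Fin m ⊕ Fin m) (Fin m ⊕ Fin m) F,
      ∀ A, blk A = Matrix.fromBlocks (A : Matrix (Fin m) (Fin m) F) 0 0
        (((A⁻¹ : GL (Fin m) F) : Matrix (Fin m) (Fin m) F)ᵀ.map σ) := ⟨_, fun _ => rfl⟩
  have hblk_one : blk 1 = 1 := by
    rw [hblk, inv_one, Units.val_one, Matrix.transpose_one,
      Matrix.map_one _ (map_zero σ) (map_one σ), Matrix.fromBlocks_one]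
  have hblk_mul : ∀ A B, blk (A * B) = blk A * blk B := by
    intro A B
    rw [hblk, hblk, hblk, Matrix.fromBlocks_multiply, mul_inv_rev, Units.val_mul, Units.val_mul,
      Matrix.transpose_mul, Matrix.map_mul]
    simp
  obtain ⟨ψ, hψ⟩ : ∃ ψ : GL (Fin m) F →* Matrix (Fin n) (Fin n) F,
      ∀ A, ψ A = P * blk A * P' := by
    refine ⟨{ toFun := fun A => P * blk A * P', map_one' := ?_, map_mul' := ?_ }, fun _ => rfl⟩
    · rw [hblk_one, Matrix.mul_one, hPP']
    · intro A B
      rw [hblk_mul]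
      have h1 : P * blk A * P' * (P * blk B * P') = P * blk A * (P' * P) * blk B * P' := by
        simp only [Matrix.mul_assoc]
      rw [h1, hP'P, Matrix.mul_one]
      simp only [Matrix.mul_assoc]
  have hφ : ∀ A, ((ψ.toHomUnits A : GL (Fin n) F) : Matrix (Fin n) (Fin n) F) = P * blk A * P' := by
    intro A
    rw [MonoidHom.coe_toHomUnits, hψ]
  -- the vectors of the basis
  have hbcol : ∀ s, b s = P *ᵥ Pi.single s 1 := by
    intro s
    rw [Matrix.mulVec_single_one]
    funext i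
    rw [hP]
    simp [Module.Basis.toMatrix_apply]
  have hPsum : ∀ x : Fin m ⊕ Fin m → F, P *ᵥ x = ∑ s, x s • b s := by
    intro x
    funext i
    rw [hP]
    simp [Matrix.mulVec, dotProduct, Module.Basis.toMatrix_apply, mul_comm]
  -- the members of the pair as spans
  have hspan0 : D 0 = Submodule.span F (Set.range (b ∘ Sum.inl)) := by
    symm
    apply Submodule.eq_of_le_of_finrank_eq
    · rw [Submodule.span_le]
      rintro _ ⟨i, rfl⟩
      exact hb.1 i
    · rw [finrank_span_eq_card (b.linearIndependent.comp _ Sum.inl_injective), Fintype.card_fin,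
        hD.1.finrank_eq 0]
  have hspan1 : D 1 = Submodule.span F (Set.range (b ∘ Sum.inr)) := by
    symm
    apply Submodule.eq_of_le_of_finrank_eq
    · rw [Submodule.span_le]
      rintro _ ⟨i, rfl⟩
      exact hb.2.1 i
    · rw [finrank_span_eq_card (b.linearIndependent.comp _ Sum.inr_injective), Fintype.card_fin,
        hD.1.finrank_eq 1]
  have hmap0 : ∀ A, ∀ v ∈ D 0, (P * blk A * P') *ᵥ v ∈ D 0 := by
    intro A v hv
    have h1 : (D 0).map (Matrix.toLin' (P * blk A * P')) ≤ D 0 := by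
      rw [hspan0, Submodule.map_span, Submodule.span_le]
      rintro _ ⟨_, ⟨i, rfl⟩, rfl⟩
      rw [← hspan0, Matrix.toLin'_apply, Function.comp_apply, hbcol, Matrix.mulVec_mulVec]
      have h2 : P * blk A * P' * P = P * blk A := by
        rw [Matrix.mul_assoc, hP'P, Matrix.mul_one]
      rw [h2, ← Matrix.mulVec_mulVec, hPsum, Fintype.sum_sum_type]
      refine Submodule.add_mem _ (Submodule.sum_mem _ fun k _ => Submodule.smul_mem _ _ (hb.1 k))
        (Submodule.sum_mem _ fun k _ => ?_)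
      rw [Matrix.mulVec_single_one, hblk]
      simp
    exact h1 ⟨v, hv, by rw [Matrix.toLin'_apply]⟩
  have hmap1 : ∀ A, ∀ v ∈ D 1, (P * blk A * P') *ᵥ v ∈ D 1 := by
    intro A v hv
    have h1 : (D 1).map (Matrix.toLin' (P * blk A * P')) ≤ D 1 := by
      rw [hspan1, Submodule.map_span, Submodule.span_le]
      rintro _ ⟨_, ⟨i, rfl⟩, rfl⟩
      rw [← hspan1, Matrix.toLin'_apply, Function.comp_apply, hbcol, Matrix.mulVec_mulVec]
      have h2 : P * blk A * P' * P = P * blk A := by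
        rw [Matrix.mul_assoc, hP'P, Matrix.mul_one]
      rw [h2, ← Matrix.mulVec_mulVec, hPsum, Fintype.sum_sum_type]
      refine Submodule.add_mem _ (Submodule.sum_mem _ fun k _ => ?_)
        (Submodule.sum_mem _ fun k _ => Submodule.smul_mem _ _ (hb.2.1 k))
      rw [Matrix.mulVec_single_one, hblk]
      simp
    exact h1 ⟨v, hv, by rw [Matrix.toLin'_apply]⟩
  have hinv : ∀ A, (P * blk A * P') * (P * blk A⁻¹ * P') = 1 := by
    intro A
    rw [← hψ, ← hψ, ← map_mul, mul_inv_cancel, map_one]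
  have hfix : ∀ A, ∀ W : Submodule F (Fin n → F),
      (∀ B, ∀ v ∈ W, (P * blk B * P') *ᵥ v ∈ W) →
      W.map (Matrix.toLin' (P * blk A * P')) = W := by
    intro A W hW
    apply le_antisymm
    · rintro _ ⟨v, hv, rfl⟩
      rw [Matrix.toLin'_apply]
      exact hW A v hv
    · intro v hv
      refine ⟨(P * blk A⁻¹ * P') *ᵥ v, hW A⁻¹ v hv, ?_⟩
      rw [Matrix.toLin'_apply, Matrix.mulVec_mulVec, hinv, Matrix.one_mulVec]
  refine ⟨ψ.toHomUnits, ?_, ?_⟩
  · -- injective
    intro A B hAB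
    have h1 : P * blk A * P' = P * blk B * P' := by
      rw [← hφ, ← hφ, hAB]
    have h2 : blk A = blk B := by
      rw [← hcancel (blk A), h1, hcancel]
    rw [hblk, hblk] at h2
    exact Units.ext (Matrix.fromBlocks_inj.mp h2).1
  · intro A
    refine ⟨?_, ?_, ?_⟩
    · -- unitary
      show ∀ u v, Cfsg.hermForm n F q
        (((ψ.toHomUnits A : GL (Fin n) F) : Matrix (Fin n) (Fin n) F) *ᵥ u)
        (((ψ.toHomUnits A : GL (Fin n) F) : Matrix (Fin n) (Fin n) F) *ᵥ v)
          = Cfsg.hermForm n F q u v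
      rw [hφ]
      apply embIsoOfGram hF
      rw [← hσ, Matrix.map_mul, Matrix.map_mul, Matrix.transpose_mul, Matrix.transpose_mul]
      have h3 : (blk A)ᵀ * ((Matrix.fromBlocks 0 1 1 0 :
          Matrix (Fin m ⊕ Fin m) (Fin m ⊕ Fin m) F) * (blk A).map σ)
            = Matrix.fromBlocks 0 1 1 0 := by
        rw [hblk, Matrix.fromBlocks_transpose, Matrix.fromBlocks_map, Matrix.fromBlocks_multiply,
          Matrix.fromBlocks_multiply]
        have h4 : ((A : Matrix (Fin m) (Fin m) F))ᵀ *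
            ((((A⁻¹ : GL (Fin m) F) : Matrix (Fin m) (Fin m) F)ᵀ.map σ).map σ) = 1 := by
          have h5 : ((((A⁻¹ : GL (Fin m) F) : Matrix (Fin m) (Fin m) F)ᵀ.map σ).map σ)
              = ((A⁻¹ : GL (Fin m) F) : Matrix (Fin m) (Fin m) F)ᵀ := by
            ext i j
            simp [hσσ]
          rw [h5, ← Matrix.transpose_mul, ← Units.val_mul, inv_mul_cancel, Units.val_one,
            Matrix.transpose_one]
        have h6 : ((((A⁻¹ : GL (Fin m) F) : Matrix (Fin m) (Fin m) F)ᵀ.map σ))ᵀ *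
            ((A : Matrix (Fin m) (Fin m) F).map σ) = 1 := by
          rw [Matrix.transpose_map, Matrix.transpose_transpose, ← Matrix.map_mul,
            ← Units.val_mul, inv_mul_cancel, Units.val_one,
            Matrix.map_one _ (map_zero σ) (map_one σ)]
        simp only [Matrix.transpose_zero, Matrix.map_zero _ (map_zero σ), Matrix.mul_zero,
          Matrix.zero_mul, Matrix.one_mul, add_zero, zero_add, h4, h6]
      calc P'ᵀ * ((blk A)ᵀ * Pᵀ) * (P.map σ * (blk A).map σ * P'.map σ)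
          = P'ᵀ * ((blk A)ᵀ * ((Pᵀ * P.map σ) * (blk A).map σ)) * P'.map σ := by
            simp only [Matrix.mul_assoc]
        _ = P'ᵀ * ((Matrix.fromBlocks 0 1 1 0 :
              Matrix (Fin m ⊕ Fin m) (Fin m ⊕ Fin m) F) * P'.map σ) := by
            rw [hG, h3, Matrix.mul_assoc]
        _ = 1 := hG'
    · -- fixes the pair
      intro i
      rw [hφ]
      fin_cases i
      · exact hfix A (D 0) hmap0
      · exact hfix A (D 1) hmap1
    · -- determinant
      rw [hφ, Matrix.det_conj_of_mul_eq_one hPP' hP'P, hblk, Matrix.det_fromBlocks_zero₂₁,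
        ← RingHom.mapMatrix_apply, ← RingHom.map_det, Matrix.det_transpose, hσq, mul_assoc,
        ← mul_pow, ← Matrix.det_mul, ← Units.val_mul, inv_mul_cancel, Units.val_one,
        Matrix.det_one, one_pow, mul_one]

end Cfsg.Agent.Lib.Helper72.UPair
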